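import Cfsg.Agent.Lib.Chev.Group.BN
import Cfsg.Agent.Lib.Chev.Weyl.Poincare
import Cfsg.Agent.Lib.BNPair.Coxeter
import Cfsg.Agent.Lib.Chev.Data.G2Weyl
import Cfsg.Agent.Lib.Chev.Data.B2Weyl
import Cfsg.Agent.Lib.Chev.Data.D4Weyl
import Cfsg.Agent.Lib.Chev.Data.F4Weyl

/-! `N / H` is the Coxeter group. -/
set_option autoImplicit false
set_option maxRecDepth 100000
open Cfsg.Lie
open scoped Matrix MatrixGroups

namespace CfsgLib.Chev.WeylGroup

open CfsgLib.Chev CfsgLib.Chev.Checks CfsgLib.Chev.Basic CfsgLib.BNPair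

variable {D : ChevalleyDatum} {F : Type*} [Field F]

theorem diag_of_same (hD : D ∈ dataList) {l m : List ℕ} (hl : ∀ i ∈ l, i < D.rank) (hm : ∀ i ∈ m, i < D.rank)
    (h : Weyl.Same D l m) : (N.nW hD F l)⁻¹ * N.nW hD F m ∈ D.diagonalSubgroup F := by
  obtain ⟨p, hp, c, hc, e⟩ := N.exists_word hD (mul_mem (inv_mem (N.nW_mem (F := F) hD hl)) (N.nW_mem hD hm))
  rw [e]
  refine mul_mem (N.nW_mem_diagonal hD p.length p le_rfl hp fun r hr => ?_) hc
  have e2 : N.nW hD F m = N.nW hD F (l ++ p) * c := by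
    rw [N.nW_append, mul_assoc, ← e]; group
  have e3 := N.act_congr hD hm (Weyl.mem_append_lt hl hp) hc e2 hr.1
  rw [← h r hr.1, N.act_append] at e3
  rwa [← Weyl.act_inj hD hl hr.1 (N.act_lt hD hp hr.1) e3]

/-- `(ij)^n` as a word -/
def pairWord (i j : ℕ) : ℕ → List ℕ
  | 0 => []
  | n + 1 => i :: j :: pairWord i j n

/-- the orders of products of two fundamental reflections -/
def matrixOK (D : ChevalleyDatum) (T : Tables.Tab) (M : ℕ → ℕ → ℕ) : Bool :=
  (List.range D.rank).all fun i => (List.range D.rank).all fun j =>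
    decide (0 < M i j) &&
    ((List.range D.rank).all fun a => Orbit.follow T (pairWord i j (M i j)).reverse (D.simple a) == D.simple a) &&
    (List.range (M i j)).all fun k => k == 0 ||
      (List.range D.rank).any fun a => Orbit.follow T (pairWord i j k).reverse (D.simple a) != D.simple a

theorem pairWord_lt {i j : ℕ} {b : ℕ} (hi : i < b) (hj : j < b) : ∀ n, ∀ k ∈ pairWord i j n, k < b
  | 0 => by simp [pairWord]
  | n + 1 => List.forall_mem_cons.2 ⟨hi, List.forall_mem_cons.2 ⟨hj, pairWord_lt hi hj n⟩⟩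

/-- the representative of a generator -/
noncomputable def gen (hD : D ∈ dataList) (i : Fin D.rank) : (BN.bnPair (F := F) hD).S :=
  ⟨⟨N.ni hD F i, BN.ni_mem_group hD i⟩, ⟨i, i.2, nGL_val hD _ _⟩⟩

/-- the fundamental involution -/
noncomputable def s (hD : D ∈ dataList) (i : Fin D.rank) : Bruhat.W (BN.bnPair (F := F) hD) :=
  Bruhat.simp_ _ (gen hD i)

theorem gen_bijective (hD : D ∈ dataList) : Function.Bijective (gen (F := F) hD) := by
  refine ⟨fun i j h => ?_, fun x => ?_⟩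
  · have e : N.ni hD F i = N.ni hD F j := congrArg (fun x => ((x.1 : ↥(D.group F)) : GL D.Idx F)) h
    exact Fin.ext (BN.ni_inj (F := F) hD i.2 j.2 (by rw [e, inv_mul_cancel]; exact one_mem _))
  · obtain ⟨i, hi, he⟩ := BN.genSet_val hD x.2
    exact ⟨⟨i, hi⟩, Subtype.ext (Subtype.ext he.symm)⟩

theorem exchange (hD : D ∈ dataList) : Coxeter.Exchange (s (F := F) hD) := by
  obtain ⟨hinj, hsur⟩ := gen_bijective (F := F) hD
  let P := BN.bnPair (F := F) hD
  have h := Coxeter.exchange_bnPair P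
  let g := Equiv.ofBijective _ (gen_bijective (F := F) hD)
  have hmap : ∀ l : List P.S, ((l.map g.symm).map (s (F := F) hD)).prod = (l.map (Bruhat.simp_ P)).prod := fun l => by
    rw [List.map_map]; congr 1; refine List.map_congr_left fun x _ => ?_
    show Bruhat.simp_ P (g (g.symm x)) = _
    rw [Equiv.apply_symm_apply]
  have hmap' : ∀ l : List (Fin D.rank), ((l.map g).map (Bruhat.simp_ P)).prod = (l.map (s (F := F) hD)).prod := fun l => by
    rw [List.map_map]; rfl
  refine ⟨fun i => h.sq _, fun w => ?_, fun l i hr hd => ?_⟩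
  · obtain ⟨l, hl⟩ := h.gen w
    exact ⟨l.map g.symm, (hmap l).trans hl⟩
  · obtain ⟨m, hm, hml⟩ := hd
    obtain ⟨p, c, e, h1, h2⟩ := h.exchange (l.map g) (g i)
      (fun x hx => by
        have := hr (x.map g.symm) ((hmap x).trans (hx.trans (hmap' l)))
        simpa using this)
      ⟨m.map g, by rw [hmap', hm, hmap']; rfl, by simpa using hml⟩
    refine ⟨p.map g.symm, c.map g.symm, g.symm e, ?_, ?_⟩
    · have e' := congrArg (List.map g.symm) h1
      rw [List.map_map, List.map_append, List.map_cons] at e'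
      simpa using e'
    · rw [← List.map_append, hmap, h2, hmap']; rfl

theorem s_prod (hD : D ∈ dataList) (l : List (Fin D.rank)) :
    ∃ n : (BN.bnPair (F := F) hD).N, ((n : ↥(D.group F)) : GL D.Idx F) = N.nW hD F (l.map Fin.val) ∧
      Bruhat.proj _ n = (l.map (s (F := F) hD)).prod := by
  induction l with
  | nil => exact ⟨1, by simp [N.nW], by simp⟩
  | cons a l ih =>
    obtain ⟨n, hn, hn'⟩ := ih
    exact ⟨Bruhat.gen _ (gen hD a) * n, by simp [Bruhat.gen, gen, hn, N.nW_cons],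
      by simp [s, Bruhat.simp_, ← hn', map_mul]⟩

theorem prod_eq_one_iff (hD : D ∈ dataList) (l : List (Fin D.rank)) :
    (l.map (s (F := F) hD)).prod = 1 ↔ Weyl.Same D (l.map Fin.val) [] := by
  obtain ⟨n, hn, hp⟩ := s_prod (F := F) hD l
  have hl : ∀ i ∈ l.map Fin.val, i < D.rank := fun i hi => by
    obtain ⟨a, -, rfl⟩ := List.mem_map.1 hi; exact a.2
  rw [← hp, Bruhat.proj_eq_one_iff]
  constructor
  · intro h
    have hB : N.nW hD F (l.map Fin.val) ∈ D.borelSubgroup F := hn ▸ Subgroup.mem_subgroupOf.1 h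
    have hH := (BN.inf_monomial hD).le (Subgroup.mem_inf.2 ⟨hB, N.nW_mem hD hl⟩)
    exact fun r hr => N.act_congr hD hl (by simp) hH (by simp [N.nW]) hr
  · intro h
    have := diag_of_same (F := F) hD (by simp) hl (fun r hr => (h r hr).symm)
    refine Subgroup.mem_subgroupOf.2 ?_
    rw [hn]
    refine (le_sup_right : D.diagonalSubgroup F ≤ D.borelSubgroup F) ?_
    simpa [N.nW] using this

theorem coxeter_data (hD : D ∈ dataList) {T : Tables.Tab} (hT : Tables.Valid D T)
    (M : CoxeterMatrix (Fin D.rank)) (Mf : ℕ → ℕ → ℕ) (hMf : ∀ i j : Fin D.rank, M i j = Mf i j)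
    (hok : matrixOK D T Mf = true) :
    (∀ i j, (s (F := F) hD i * s hD j) ^ M i j = 1) ∧
      ∀ i j n, (s (F := F) hD i * s hD j) ^ n = 1 → M i j ∣ n := by
  have hpw : ∀ (i j : Fin D.rank) (n : ℕ), ∃ l : List (Fin D.rank), l.map Fin.val = pairWord i j n ∧
      (l.map (s (F := F) hD)).prod = (s (F := F) hD i * s hD j) ^ n := by
    intro i j n
    induction n with
    | zero => exact ⟨[], rfl, by simp⟩
    | succ n ih =>
      obtain ⟨l, h1, h2⟩ := ih
      exact ⟨i :: j :: l, by simp [pairWord, h1], by simp [h2, pow_succ', mul_assoc]⟩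
  have hfol : ∀ (i j : Fin D.rank) (n a : ℕ), a < D.rank →
      Orbit.follow T (pairWord i j n).reverse (D.simple a) = N.act D (pairWord i j n) (D.simple a) := fun i j n a ha => by
    rw [Weyl.follow_eq hD hT (fun k hk => pairWord_lt i.2 j.2 n k (List.mem_reverse.1 hk)) (Rel.simple_lt hD ha),
      List.reverse_reverse]
  simp only [matrixOK, List.all_eq_true, List.mem_range, Bool.and_eq_true, Bool.or_eq_true, beq_iff_eq,
    decide_eq_true_eq, List.any_eq_true, bne_iff_ne] at hok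
  have hpow : ∀ i j, (s (F := F) hD i * s hD j) ^ M i j = 1 := by
    intro i j
    obtain ⟨⟨-, h2⟩, -⟩ := hok i i.2 j j.2
    obtain ⟨l, h1, h3⟩ := hpw i j (M i j)
    rw [← h3, prod_eq_one_iff, h1, hMf]
    have hl := pairWord_lt i.2 j.2 (Mf i j)
    refine Weyl.same_nil_of_pos hD hl fun r hr => Weyl.pos_of_simple_pos hD hl hr fun a ha _ => ?_
    rw [← hfol i j _ a ha, h2 a ha]
    exact N.simple_pos hD ha
  refine ⟨hpow, fun i j n hn => Nat.dvd_of_mod_eq_zero ?_⟩
  obtain ⟨⟨h0, -⟩, h4⟩ := hok i i.2 j j.2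
  have hk : (s (F := F) hD i * s hD j) ^ (n % M i j) = 1 := by
    have e := pow_add (s (F := F) hD i * s hD j) (n % M i j) (M i j * (n / M i j))
    rw [Nat.mod_add_div, pow_mul, hpow, one_pow, mul_one, hn] at e
    exact e.symm
  obtain ⟨l, h1, h3⟩ := hpw i j (n % M i j)
  rw [← h3, prod_eq_one_iff, h1] at hk
  have hlt : n % M i j < Mf i j := by rw [← hMf]; exact Nat.mod_lt _ (by rw [hMf]; exact h0)
  rcases h4 _ hlt with h | ⟨a, ha, hne⟩
  · exact h
  · rw [hfol i j _ a ha, hk _ (Rel.simple_lt hD ha)] at hne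
    exact absurd rfl hne

theorem exists_hom (hD : D ∈ dataList) {T : Tables.Tab} (hT : Tables.Valid D T) (M : CoxeterMatrix (Fin D.rank))
    (Mf : ℕ → ℕ → ℕ) (hMf : ∀ i j : Fin D.rank, M i j = Mf i j) (hok : matrixOK D T Mf = true) :
    ∃ φ : ↥(D.monomialSubgroup F) →* M.Group, Function.Surjective φ ∧
      φ.ker = (D.diagonalSubgroup F).subgroupOf (D.monomialSubgroup F) ∧
      ∀ (i : Fin D.rank) (g : ↥(D.monomialSubgroup F)),
        ((g : GL D.Idx F) : Matrix D.Idx D.Idx F) = D.nMat F (D.simple i) 1 → φ g = M.simple i := by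
  let P := BN.bnPair (F := F) hD
  obtain ⟨hpow, hdvd⟩ := coxeter_data (F := F) hD hT M Mf hMf hok
  let e := MulEquiv.ofBijective (Coxeter.hom (M := M) (s := s (F := F) hD) hpow)
    (Coxeter.bijective (exchange hD) hpow hdvd)
  let ι : ↥(D.monomialSubgroup F) ≃* P.N := (Subgroup.subgroupOfEquivOfLe (monomial_le_group hD)).symm
  refine ⟨(e.symm.toMonoidHom.comp (Bruhat.proj P)).comp ι.toMonoidHom,
    (e.symm.surjective.comp (QuotientGroup.mk'_surjective _)).comp ι.surjective, ?_, fun i g hg => ?_⟩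
  · ext g
    rw [MonoidHom.mem_ker, Subgroup.mem_subgroupOf]
    show e.symm (Bruhat.proj P (ι g)) = 1 ↔ _
    rw [map_eq_one_iff e.symm e.symm.injective, Bruhat.proj_eq_one_iff]
    exact ⟨fun h => (BN.inf_monomial hD).le (Subgroup.mem_inf.2 ⟨Subgroup.mem_subgroupOf.1 h, g.2⟩),
      fun h => Subgroup.mem_subgroupOf.2 (Subgroup.mem_sup_right h)⟩
  · show e.symm (Bruhat.proj P (ι g)) = _
    rw [MulEquiv.symm_apply_eq]
    have hh : ι g = Bruhat.gen P (gen hD i) :=
      Subtype.ext (Subtype.ext (Units.ext (hg.trans (nGL_val hD _ _).symm)))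
    rw [hh]
    exact (Coxeter.hom_simple hpow i).symm

theorem card_coxeter (hD : D ∈ dataList) {T : Tables.Tab} {R : List ℕ} {reps : List (List (List ℕ))}
    (hT : Tables.Valid D T) (hL : Lin.ValidL D T R) (hW : Weyl.weylOK D T R reps = true)
    (M : CoxeterMatrix (Fin D.rank)) (Mf : ℕ → ℕ → ℕ) (hMf : ∀ i j : Fin D.rank, M i j = Mf i j)
    (hok : matrixOK D T Mf = true) : Nat.card M.Group = (Weyl.words reps D.rank).length := by
  obtain ⟨φ, hsur, hker, -⟩ := exists_hom (F := ℚ) hD hT M Mf hMf hok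
  set L := Weyl.words reps D.rank with hLdef
  have hlt : ∀ i : Fin L.length, ∀ j ∈ L.get i, j < D.rank := fun i =>
    Weyl.words_lt hD hT hW D.rank le_rfl _ (List.get_mem _ _)
  let ψ : Fin L.length → M.Group := fun i => φ ⟨N.nW hD ℚ (L.get i), N.nW_mem hD (hlt i)⟩
  have hbij : Function.Bijective ψ := by
    refine ⟨fun i j h => ?_, fun w => ?_⟩
    · have hH : (N.nW hD ℚ (L.get i))⁻¹ * N.nW hD ℚ (L.get j) ∈ D.diagonalSubgroup ℚ := by
        have h1 : (⟨N.nW hD ℚ (L.get i), N.nW_mem hD (hlt i)⟩ : ↥(D.monomialSubgroup ℚ))⁻¹ *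
            ⟨N.nW hD ℚ (L.get j), N.nW_mem hD (hlt j)⟩ ∈ φ.ker := by
          rw [MonoidHom.mem_ker, map_mul, map_inv]; exact inv_mul_eq_one.2 h
        rw [hker] at h1
        exact Subgroup.mem_subgroupOf.1 h1
      have hsame : Weyl.Same D (L.get j) (L.get i) := fun r hr =>
        N.act_congr (F := ℚ) hD (hlt j) (hlt i) hH (by group) hr
      have hp := List.pairwise_iff_get.1 (Weyl.words_pairwise hD hT hL hW D.rank le_rfl)
      rcases lt_trichotomy i j with h1 | h1 | h1
      · exact absurd (fun r hr => (hsame r hr).symm) (hp _ _ h1)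
      · exact h1
      · exact absurd hsame (hp _ _ h1)
    · obtain ⟨g, rfl⟩ := hsur w
      obtain ⟨l, hl, k, hk, e⟩ := N.exists_word hD g.2
      obtain ⟨w', hw', hs⟩ := Weyl.words_complete hD hT hL hW D.rank le_rfl l hl
      obtain ⟨i, rfl⟩ := List.get_of_mem hw'
      refine ⟨i, ?_⟩
      have h1 : (⟨N.nW hD ℚ (L.get i), N.nW_mem hD (hlt i)⟩ : ↥(D.monomialSubgroup ℚ))⁻¹ * g ∈ φ.ker := by
        rw [hker, Subgroup.mem_subgroupOf]
        show (N.nW hD ℚ (L.get i))⁻¹ * (g : GL D.Idx ℚ) ∈ _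
        rw [e, ← mul_assoc]
        exact mul_mem (diag_of_same hD (hlt i) hl fun r hr => (hs r hr).symm) hk
      rw [MonoidHom.mem_ker, map_mul, map_inv, inv_mul_eq_one] at h1
      exact h1
  rw [← Nat.card_congr (Equiv.ofBijective ψ hbij), Nat.card_fin]

end CfsgLib.Chev.WeylGroup
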