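import Cfsg.Agent.Lib.BNPair.Steinberg
import Cfsg.Agent.Lib.Chev.Group.BN
import Cfsg.Agent.Lib.Chev.Group.Opposite
import Cfsg.Agent.Lib.Chev.Group.WeylGroup
import Cfsg.Agent.Lib.Chev.Group.Order

/-! The Steinberg character of a Chevalley group. -/
set_option autoImplicit false
open Cfsg.Lie
open scoped Classical

namespace CfsgLib.Chev.Steinberg

open CfsgLib.Chev CfsgLib.Chev.Checks CfsgLib.Chev.Basic CfsgLib.BNPair

variable {D : ChevalleyDatum} {F : Type*} [Field F] [Fintype F]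

/-- the diagonal subgroup inside `B` inside the group -/
abbrev H (hD : D ∈ dataList) : Subgroup (BN.bnPair (F := F) hD).B :=
  ((D.diagonalSubgroup F).subgroupOf (D.group F)).subgroupOf ((D.borelSubgroup F).subgroupOf (D.group F))

theorem parabolicIn_eq (hD : D ∈ dataList) (J : Finset ℕ) (K : Set ↥(D.group F))
    (hK : K = {n : ↥(D.group F) | ∃ j ∈ J, j < D.rank ∧ ((n : GL D.Idx F) : Matrix D.Idx D.Idx F) = D.nMat F (D.simple j) 1}) :
    D.parabolicIn F J = (BN.bnPair (F := F) hD).parabolic K := by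
  subst hK
  have hle : D.parabolicSubgroup F (↑J : Set ℕ) ≤ D.group F := sup_le (borel_le_group hD) ((Subgroup.closure_le _).2 (by
    rintro g ⟨j, -, hj, e⟩
    rw [show g = N.ni hD F j from Units.ext (e.trans (nGL_val hD _ _).symm)]
    exact BN.ni_mem_group hD j))
  refine Subgroup.map_injective (D.group F).subtype_injective ?_
  rw [ChevalleyDatum.parabolicIn, Subgroup.map_subgroupOf_eq_of_le hle, Cfsg.BNPair.parabolic, Subgroup.map_sup,
    show (BN.bnPair (F := F) hD).B = (D.borelSubgroup F).subgroupOf (D.group F) from rfl,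
    Subgroup.map_subgroupOf_eq_of_le (borel_le_group hD), MonoidHom.map_closure]
  refine congrArg (fun S => D.borelSubgroup F ⊔ Subgroup.closure S) (Set.ext fun g => ⟨?_, ?_⟩)
  · rintro ⟨j, hj, hjr, e⟩
    have hg : g ∈ D.group F := hle (Subgroup.mem_sup_right (Subgroup.subset_closure ⟨j, hj, hjr, e⟩))
    exact ⟨⟨g, hg⟩, ⟨j, hj, hjr, e⟩, rfl⟩
  · rintro ⟨n, ⟨j, hj, hjr, e⟩, rfl⟩
    exact ⟨j, hj, hjr, e⟩

theorem eq_st (hD : D ∈ dataList) :
    D.steinbergCharacter F = CfsgLib.BNPair.Steinberg.st (BN.bnPair (F := F) hD) := by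
  funext g
  set P := BN.bnPair (F := F) hD
  let e := Equiv.ofBijective _ (WeylGroup.gen_bijective (F := F) hD)
  letI hP : Fintype P.S := CfsgLib.BNPair.Steinberg.instFintypeElemS P
  unfold ChevalleyDatum.steinbergCharacter CfsgLib.BNPair.Steinberg.st
  refine Finset.sum_bij' (fun J _ => Finset.univ.filter fun s => (e.symm s : ℕ) ∈ J)
    (fun K _ => K.image fun s => (e.symm s : ℕ)) (fun _ _ => Finset.mem_univ _) (fun K _ => ?_) (fun J hJ => ?_)
    (fun K _ => ?_) (fun J hJ => ?_)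
  · refine Finset.mem_powerset.2 fun x hx => ?_
    obtain ⟨s, -, rfl⟩ := Finset.mem_image.1 hx
    exact Finset.mem_range.2 (e.symm s).2
  · ext x
    simp only [Finset.mem_image, Finset.mem_filter, Finset.mem_univ, true_and]
    refine ⟨fun ⟨s, hs, hx⟩ => hx ▸ hs, fun hx => ⟨e ⟨x, Finset.mem_range.1 (Finset.mem_powerset.1 hJ hx)⟩, ?_, ?_⟩⟩ <;>
      simp [hx]
  · ext s
    simp only [Finset.mem_filter, Finset.mem_univ, true_and, Finset.mem_image]
    exact ⟨fun ⟨t, ht, h⟩ => e.symm.injective (Fin.ext h) ▸ ht, fun h => ⟨s, h, rfl⟩⟩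
  · have hcard : (Finset.univ.filter fun s => (e.symm s : ℕ) ∈ J).card = J.card := by
      refine Finset.card_bij (fun s _ => (e.symm s : ℕ)) (fun s hs => (Finset.mem_filter.1 hs).2)
        (fun s _ t _ h => e.symm.injective (Fin.ext h)) (fun x hx => ?_)
      refine ⟨e ⟨x, Finset.mem_range.1 (Finset.mem_powerset.1 hJ hx)⟩, ?_, ?_⟩ <;> simp [hx]
    rw [hcard]
    congr 2
    refine parabolicIn_eq hD J _ (Set.ext fun n => ⟨?_, ?_⟩)
    · rintro ⟨s, hs, rfl⟩
      have hs' := (Finset.mem_filter.1 (Finset.mem_coe.1 hs)).2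
      refine ⟨(e.symm s : ℕ), hs', (e.symm s).2, ?_⟩
      have h : s = WeylGroup.gen (F := F) hD (e.symm s) := (e.apply_symm_apply s).symm
      conv_lhs => rw [h]
      exact nGL_val hD _ _
    · rintro ⟨j, hj, hjr, he⟩
      refine ⟨e ⟨j, hjr⟩, ?_, Subtype.ext (Units.ext ((nGL_val hD _ _).trans he.symm))⟩
      rw [Finset.mem_coe, Finset.mem_filter]
      exact ⟨Finset.mem_univ _, by simp [hj]⟩

theorem st_restrict (hD : D ∈ dataList) (b : (BN.bnPair (F := F) hD).B) :
    D.steinbergCharacter F (b : ↥(D.group F)) = Cfsg.fixedPointCharacter (H hD) b := by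
  rw [eq_st hD]
  refine CfsgLib.BNPair.Steinberg.st_restrict _ (H hD) (fun x hx => ?_) ?_ b
  · exact Subgroup.mem_subgroupOf.2 (Subgroup.mem_sup_left (Subgroup.mem_subgroupOf.1 (Subgroup.mem_subgroupOf.1 hx)))
  obtain ⟨n, hn, hmap⟩ := Opposite.exists_opposite (F := F) hD
  refine ⟨⟨⟨n, monomial_le_group hD hn⟩, Subgroup.mem_subgroupOf.2 hn⟩, fun x hx => ?_⟩
  refine Subgroup.mem_subgroupOf.2 (Subgroup.mem_subgroupOf.2 ?_)
  rw [← BH.borel_inf_negBorel hD]
  refine Subgroup.mem_inf.2 ⟨Subgroup.mem_subgroupOf.1 x.2, ?_⟩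
  obtain ⟨u, hu, h, hh, e⟩ := (BH.mem_borel_iff hD).1 (Subgroup.mem_subgroupOf.1 hx)
  have e' : n⁻¹ * ((x : ↥(D.group F)) : GL D.Idx F) * n = u * h := e.symm
  rw [show ((x : ↥(D.group F)) : GL D.Idx F) = n * u * n⁻¹ * (n * h * n⁻¹) by
    rw [show n * u * n⁻¹ * (n * h * n⁻¹) = n * (u * h) * n⁻¹ by group, ← e']; group]
  exact mul_mem (Subgroup.mem_sup_left (hmap ▸ ⟨u, hu, rfl⟩)) (Subgroup.mem_sup_right (N.diagonal_normal hD hn hh))

theorem degree (hD : D ∈ dataList) : D.steinbergCharacter F 1 = (Fintype.card F : ℂ) ^ (D.nroots / 2) := by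
  have h := st_restrict (F := F) hD 1
  rw [OneMemClass.coe_one] at h
  rw [h]
  unfold Cfsg.fixedPointCharacter
  rw [MulAction.fixedBy_one_eq_univ, Nat.card_univ]
  have hcard : Nat.card ((BN.bnPair (F := F) hD).B ⧸ H hD) * Nat.card (H (F := F) hD) =
      Nat.card (BN.bnPair (F := F) hD).B := (Subgroup.card_eq_card_quotient_mul_card_subgroup _).symm
  have hB : Nat.card (BN.bnPair (F := F) hD).B = Nat.card (D.borelSubgroup F) :=
    Nat.card_congr (Subgroup.subgroupOfEquivOfLe (borel_le_group hD)).toEquiv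
  have hH : Nat.card (H (F := F) hD) = Nat.card (D.diagonalSubgroup F) := by
    exact (Nat.card_congr (Subgroup.subgroupOfEquivOfLe (fun x hx =>
      Subgroup.mem_subgroupOf.2 (Subgroup.mem_sup_right (Subgroup.mem_subgroupOf.1 hx)) :
      (D.diagonalSubgroup F).subgroupOf (D.group F) ≤ (D.borelSubgroup F).subgroupOf (D.group F))).toEquiv).trans
      (Nat.card_congr (Subgroup.subgroupOfEquivOfLe (diagonal_le_group hD)).toEquiv)
  rw [hB, hH, Order.card_borel hD] at hcard
  rw [Nat.eq_of_mul_eq_mul_right Nat.card_pos hcard]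
  simp

theorem irreducible (hD : D ∈ dataList) : Cfsg.IsIrrCharacter ↥(D.group F) (D.steinbergCharacter F) := by
  have := Fintype.ofFinite ↥(D.group F)
  rw [eq_st hD]
  refine CfsgLib.BNPair.Steinberg.st_irreducible _ ⟨Fintype.card F ^ (D.nroots / 2), ?_, pow_pos Fintype.card_pos _⟩
  rw [← eq_st hD, degree hD]
  simp

end CfsgLib.Chev.Steinberg
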