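import Cfsg.Agent.Lib.BNPair.UnipotentCount
import Cfsg.Agent.Lib.Chev.Group.Steinberg
import Cfsg.Agent.Lib.Chev.Group.Parabolic
import Cfsg.Agent.S2326

/-! Steinberg's count of unipotent elements. -/
set_option autoImplicit false
open Cfsg.Lie
open scoped Classical

namespace CfsgLib.Chev.UnipotentCount

open CfsgLib.Chev CfsgLib.Chev.Checks CfsgLib.Chev.Basic
open CfsgLib.BNPair.Steinberg (para)

variable {D : ChevalleyDatum} {F : Type*} [Field F] [Fintype F]

theorem mem_of_coprime_index {B : Type*} [Group B] {N : Subgroup B} [N.Normal] {p k : ℕ} (hp : p.Prime)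
    (hN : ¬ p ∣ N.index) {x : B} (hx : x ^ p ^ k = 1) : x ∈ N := by
  have h1 : orderOf (QuotientGroup.mk' N x) ∣ p ^ k := orderOf_dvd_of_pow_eq_one (by rw [← map_pow, hx, map_one])
  have h2 : orderOf (QuotientGroup.mk' N x) ∣ N.index := orderOf_dvd_natCard _
  obtain ⟨j, -, hj⟩ := (Nat.dvd_prime_pow hp).1 h1
  rcases j with _ | j
  · rw [pow_zero, orderOf_eq_one_iff, QuotientGroup.mk'_apply, QuotientGroup.eq_one_iff] at hj
    exact hj
  · rw [hj] at h2
    exact absurd ((dvd_pow_self p j.succ_ne_zero).trans h2) hN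

/-- the fundamental indices of a set of generators -/
noncomputable def nat (hD : D ∈ dataList) (J : Finset (BN.bnPair (F := F) hD).S) : Set ℕ :=
  {j | ∃ h : j < D.rank, WeylGroup.gen (F := F) hD ⟨j, h⟩ ∈ J}

theorem para_eq (hD : D ∈ dataList) (J : Finset (BN.bnPair (F := F) hD).S) :
    para (BN.bnPair (F := F) hD) J = (D.parabolicSubgroup F (nat hD J)).subgroupOf (D.group F) := by
  have hsur := (WeylGroup.gen_bijective (F := F) hD).2
  have hle : D.parabolicSubgroup F (nat hD J) ≤ D.group F := sup_le (borel_le_group hD) ((Subgroup.closure_le _).2 (by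
    rintro g ⟨j, -, hj, e⟩
    rw [show g = N.ni hD F j from Units.ext (e.trans (nGL_val hD _ _).symm)]
    exact BN.ni_mem_group hD j))
  refine Subgroup.map_injective (D.group F).subtype_injective ?_
  rw [Subgroup.map_subgroupOf_eq_of_le hle, para, Cfsg.BNPair.parabolic, Subgroup.map_sup,
    show (BN.bnPair (F := F) hD).B = (D.borelSubgroup F).subgroupOf (D.group F) from rfl,
    Subgroup.map_subgroupOf_eq_of_le (borel_le_group hD), MonoidHom.map_closure]
  refine congrArg (fun S => D.borelSubgroup F ⊔ Subgroup.closure S) (Set.ext fun g => ⟨?_, ?_⟩)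
  · rintro ⟨_, ⟨s, hs, rfl⟩, rfl⟩
    obtain ⟨i, rfl⟩ := hsur s
    exact ⟨(i : ℕ), ⟨i.2, hs⟩, i.2, nGL_val hD _ _⟩
  · rintro ⟨j, ⟨hj, hs⟩, -, e⟩
    exact ⟨_, ⟨_, hs, rfl⟩, Units.ext ((nGL_val hD _ _).trans e.symm)⟩

theorem sub_neg_of_simple_neg (hD : D ∈ dataList) {l : List ℕ} (hl : ∀ i ∈ l, i < D.rank) {J : Set ℕ} {r : ℕ}
    (hr : D.IsPosRoot r) (hJ : D.InRootSub J r)
    (h : ∀ a ∈ J, a < D.rank → D.IsNegRoot (N.act D l (D.simple a))) : D.IsNegRoot (N.act D l r) := by
  rcases Checks.pos_or_neg hD (N.act_lt hD hl hr.1) with hp | hn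
  · exfalso
    obtain ⟨j, hj, hjp⟩ := Weyl.exists_coef_pos hD hp
    rw [Weyl.coef_act hD hl hj hr.1] at hjp
    have : ∑ a ∈ Finset.range D.rank, Weight.coef hD a r * Weight.coef hD j (N.act D l (D.simple a)) ≤ 0 := by
      refine Finset.sum_nonpos fun a ha => ?_
      by_cases he : a ∈ J
      · have hn := h a he (Finset.mem_range.1 ha)
        have h0 := Weight.coef_nonneg hD hj (Checks.neg_pos_of_neg hD hn.1 hn)
        rw [Weight.coef_neg hD hj hn.1] at h0
        exact mul_nonpos_of_nonneg_of_nonpos (Weight.coef_nonneg hD (Finset.mem_range.1 ha) hr) (by linarith)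
      · rw [((Parabolic.inSub_iff hD).1 hJ).2 a (Finset.mem_range.1 ha) he, zero_mul]
    linarith
  · exact hn

/-- descents send fundamental roots to negative ones -/
theorem simple_neg (hD : D ∈ dataList) (m : (BN.bnPair (F := F) hD).N) {l : List ℕ} (hl : ∀ i ∈ l, i < D.rank)
    {k : GL D.Idx F} (hk : k ∈ D.diagonalSubgroup F)
    (hm : ((m : ↥(D.group F)) : GL D.Idx F) = N.nW hD F l * k) {a : ℕ} (ha : a < D.rank)
    (hdesc : CfsgLib.BNPair.Bruhat.len _ (CfsgLib.BNPair.Bruhat.simp_ _ (WeylGroup.gen (F := F) hD ⟨a, ha⟩) * CfsgLib.BNPair.Bruhat.proj _ m) <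
      CfsgLib.BNPair.Bruhat.len _ (CfsgLib.BNPair.Bruhat.proj _ m)) :
    D.IsNegRoot (N.act D l.reverse (D.simple a)) := by
  let P := BN.bnPair (F := F) hD
  let s : P.S := WeylGroup.gen (F := F) hD ⟨a, ha⟩
  have hp := Rel.simple_lt hD ha
  have hlr : ∀ i ∈ l.reverse, i < D.rank := fun i hi => hl i (List.mem_reverse.1 hi)
  set r' := N.act D l.reverse (D.simple a)
  have hr' : r' < D.nroots := N.act_lt hD hlr hp
  rcases Checks.pos_or_neg hD hr' with hpos | hneg
  · exfalso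
    obtain ⟨η, hη, he⟩ := N.nW_conj (F := F) hD hl hr'
    rw [BN.act_reverse hD hl hp] at he
    set x := xGL hD F (D.simple a) ((η : F) * 1)
    have hxg : x ∈ D.group F := xGL_mem_group hD _ _
    let x₁ : ↥(D.group F) := ⟨x, hxg⟩
    have hxB : x₁ ∈ P.B := Subgroup.mem_subgroupOf.2 (BN.mem_borel_of_pos hD (N.simple_pos hD ha) _)
    have hx' : (m : ↥(D.group F))⁻¹ * x₁ * (m : ↥(D.group F)) ∈ P.B := by
      refine Subgroup.mem_subgroupOf.2 ?_
      show ((m : ↥(D.group F)) : GL D.Idx F)⁻¹ * x * ((m : ↥(D.group F)) : GL D.Idx F) ∈ _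
      rw [hm, show x = xGL hD F (D.simple a) ((η : F) * 1) from rfl, ← he 1,
        show (N.nW hD F l * k)⁻¹ * (N.nW hD F l * xGL hD F r' 1 * (N.nW hD F l)⁻¹) * (N.nW hD F l * k) =
          k⁻¹ * xGL hD F r' 1 * k by group]
      exact mul_mem (mul_mem (Subgroup.mem_sup_right (inv_mem hk)) (BN.mem_borel_of_pos hD hpos _))
        (Subgroup.mem_sup_right hk)
    let n : P.N := m⁻¹ * CfsgLib.BNPair.Bruhat.gen P s
    have hn : CfsgLib.BNPair.Bruhat.proj P n = (CfsgLib.BNPair.Bruhat.proj P m)⁻¹ * CfsgLib.BNPair.Bruhat.simp_ P s := by rw [map_mul, map_inv]; rfl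
    have hmin : ∀ g : ↥(D.group F), g ∈ CfsgLib.BNPair.Bruhat.cell P (CfsgLib.BNPair.Bruhat.proj P n) →
        CfsgLib.BNPair.Steinberg.RMin P {(s : ↥(D.group F))} (CfsgLib.BNPair.Steinberg.cellOf P (QuotientGroup.mk g)) := by
      intro g hg t ht
      rw [show t = s from Subtype.ext ht, CfsgLib.BNPair.Steinberg.cellOf_mk, CfsgLib.BNPair.Steinberg.cw_eq P hg, hn, mul_assoc,
        CfsgLib.BNPair.Bruhat.simp_mul_self, mul_one, CfsgLib.BNPair.Steinberg.len_inv,
        ← CfsgLib.BNPair.Steinberg.len_inv P ((CfsgLib.BNPair.Bruhat.proj P m)⁻¹ * CfsgLib.BNPair.Bruhat.simp_ P s), mul_inv_rev, inv_inv, CfsgLib.BNPair.Bruhat.simp_inv]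
      exact hdesc.le
    have e := CfsgLib.BNPair.Steinberg.res_inj P (Set.singleton_subset_iff.2 s.2)
      (y := QuotientGroup.mk (n : ↥(D.group F)))
      (z := QuotientGroup.mk ((m : ↥(D.group F))⁻¹ * x₁ * (m : ↥(D.group F)) * (n : ↥(D.group F))))
      (hmin _ (CfsgLib.BNPair.Bruhat.rep_mem_cell P n))
      (hmin _ (CfsgLib.BNPair.Bruhat.mul_left_mem_cell P hx' (CfsgLib.BNPair.Bruhat.rep_mem_cell P n))) (by
        rw [CfsgLib.BNPair.Steinberg.res_mk, CfsgLib.BNPair.Steinberg.res_mk, QuotientGroup.eq]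
        have hsP : (s : ↥(D.group F)) ∈ P.parabolic {(s : ↥(D.group F))} :=
          Subgroup.mem_sup_right (Subgroup.subset_closure rfl)
        have := mul_mem (mul_mem (inv_mem hsP) (Subgroup.mem_sup_left hxB : x₁ ∈ P.parabolic {(s : ↥(D.group F))})) hsP
        simpa [n, CfsgLib.BNPair.Bruhat.gen, mul_assoc] using this)
    rw [QuotientGroup.eq] at e
    have e1 : (s : ↥(D.group F))⁻¹ * x₁ * (s : ↥(D.group F)) ∈ P.B := by
      simpa [n, CfsgLib.BNPair.Bruhat.gen, mul_assoc] using e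
    have e2 := mul_mem (mul_mem (P.sq_mem s s.2) e1) (inv_mem (P.sq_mem s s.2))
    have e3 : (s : ↥(D.group F)) * x₁ * (s : ↥(D.group F))⁻¹ ∈ P.B := by simpa [mul_assoc] using e2
    have e4 : N.ni hD F a * x * (N.ni hD F a)⁻¹ ∈ D.borelSubgroup F := Subgroup.mem_subgroupOf.1 e3
    rw [show x = xGL hD F (D.simple a) ((η : F) * 1) from rfl, Rel.conj_GL hD ha hp,
      show D.reflectRoot a (D.simple a) = D.neg (D.simple a) by simp [ChevalleyDatum.reflectRoot]] at e4
    have := BN.borel_not_neg hD (BN.neg_simple_neg hD (N.simple_pos hD ha)) e4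
    rcases Rel.eta_cases hD a (D.simple a) with h | h <;> rcases hη with rfl | rfl <;> simp [h] at this
  · exact hneg

theorem isUnip_iff (hD : D ∈ dataList) (p : ℕ) [Fact p.Prime] [CharP F p] (g : ↥(D.group F)) :
    g ∈ (D.posUnipotent F).subgroupOf (D.group F) ↔
      g ∈ (BN.bnPair (F := F) hD).B ∧ ∃ k, orderOf g = p ^ k := by
  obtain ⟨P, hP⟩ := Cfsg.Agent.S2326.result (F := F) p D hD
  refine ⟨fun hg => ⟨Subgroup.mem_subgroupOf.2 (Subgroup.mem_sup_left (Subgroup.mem_subgroupOf.1 hg)), ?_⟩,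
    fun ⟨hgB, k, hk⟩ => ?_⟩
  · obtain ⟨k, hk⟩ := IsPGroup.iff_orderOf.1 P.isPGroup' ⟨g, hP ▸ hg⟩
    exact ⟨k, (Subgroup.orderOf_mk g _).symm.trans hk⟩
  · set U := (D.posUnipotent F).subgroupOf (D.group F)
    set B := (BN.bnPair (F := F) hD).B
    have hle : U ≤ B := fun x hx => Subgroup.mem_subgroupOf.2 (Subgroup.mem_sup_left (Subgroup.mem_subgroupOf.1 hx))
    have : (U.subgroupOf B).Normal := (Subgroup.normal_subgroupOf_iff_le_normalizer hle).2 fun x hx => by
      obtain ⟨v, hv, h, hh, e⟩ := (BH.mem_borel_iff hD).1 (Subgroup.mem_subgroupOf.1 hx)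
      have hn : (x : GL D.Idx F) ∈ Subgroup.normalizer (D.posUnipotent F : Set (GL D.Idx F)) :=
        e ▸ mul_mem (Subgroup.le_normalizer hv) (BH.diagonal_normalizes_pos hD hh)
      rw [Subgroup.mem_normalizer_iff] at hn ⊢
      intro y
      simp only [U, SetLike.mem_coe, Subgroup.mem_subgroupOf, Subgroup.coe_mul, Subgroup.coe_inv]
      exact hn _
    have hidx : ¬ p ∣ (U.subgroupOf B).index := by
      have h := P.not_dvd_index
      rw [hP] at h
      exact fun hd => h (hd.trans (Subgroup.relIndex_dvd_index_of_le hle))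
    exact Subgroup.mem_subgroupOf.1 (mem_of_coprime_index (B := B) (N := U.subgroupOf B) Fact.out hidx
      (x := (⟨g, hgB⟩ : B)) (k := k) (Subtype.ext (by show g ^ p ^ k = 1; rw [← hk, pow_orderOf_eq_one])))

set_option maxHeartbeats 1000000 in
/-- the split structure of a Chevalley group -/
noncomputable def split (hD : D ∈ dataList) (p : ℕ) [Fact p.Prime] [CharP F p] :
    CfsgLib.BNPair.UnipotentCount.Split (P := BN.bnPair (F := F) hD) (fun g : ↥(D.group F) => ∃ k, orderOf g = p ^ k) where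
  U := (D.posUnipotent F).subgroupOf (D.group F)
  H := (D.diagonalSubgroup F).subgroupOf (D.group F)
  R J := (D.unipotentRadical F (nat hD J)).subgroupOf (D.group F)
  hconj g h := fun ⟨k, hk⟩ => ⟨k, by
    rw [← hk, show h * g * h⁻¹ = MulAut.conj h g from rfl]
    exact orderOf_injective (MulAut.conj h).toMonoidHom (MulAut.conj h).injective g⟩
  hU := isUnip_iff hD p
  hH x hx := Subgroup.mem_inf.2 ⟨Subgroup.mem_subgroupOf.2 (Subgroup.mem_sup_right (Subgroup.mem_subgroupOf.1 hx)),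
    Subgroup.mem_subgroupOf.2 (Subgroup.mem_sup_left (Subgroup.mem_subgroupOf.1 hx))⟩
  hdec b hb := by
    obtain ⟨v, hv, h, hh, e⟩ := (BH.mem_borel_iff hD).1 (Subgroup.mem_subgroupOf.1 hb)
    exact ⟨⟨v, borel_le_group hD (Subgroup.mem_sup_left hv)⟩, Subgroup.mem_subgroupOf.2 hv,
      ⟨h, diagonal_le_group hD hh⟩, Subgroup.mem_subgroupOf.2 hh, Subtype.ext e.symm⟩
  hUH := disjoint_iff.2 (by
    refine (Subgroup.eq_bot_iff_forall _).2 fun x hx => Subtype.ext ?_
    exact Subgroup.mem_bot.1 ((BH.pos_inf_diagonal hD).le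
      ⟨Subgroup.mem_subgroupOf.1 hx.1, Subgroup.mem_subgroupOf.1 hx.2⟩))
  hsylow J g hg hu := by
    obtain ⟨k, hk⟩ := hu
    set Q := para (BN.bnPair (F := F) hD) J
    obtain ⟨P, hP⟩ := Cfsg.Agent.S2326.result (F := F) p D hD
    have hle : (P : Subgroup ↥(D.group F)) ≤ Q := fun x hx => by
      rw [hP] at hx
      exact Subgroup.mem_sup_left (Subgroup.mem_subgroupOf.2 (Subgroup.mem_sup_left (Subgroup.mem_subgroupOf.1 hx)))
    let S : Sylow p Q := P.subtype hle
    have hz : IsPGroup p (Subgroup.zpowers (⟨g, hg⟩ : Q)) := by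
      refine IsPGroup.of_card (n := k) ?_
      rw [Nat.card_zpowers, Subgroup.orderOf_mk, hk]
    obtain ⟨T, hT⟩ := hz.exists_le_sylow
    obtain ⟨h, hh⟩ := MulAction.exists_smul_eq Q S T
    have hmem := hT (Subgroup.mem_zpowers (⟨g, hg⟩ : Q))
    rw [← hh, Sylow.coe_subgroup_smul, Subgroup.mem_pointwise_smul_iff_inv_smul_mem] at hmem
    refine ⟨h, h.2, hP ▸ ?_⟩
    simpa [S, Sylow.coe_subtype, Subgroup.mem_subgroupOf, MulAut.smul_def, MulAut.conj_apply, mul_assoc] using hmem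
  hRU J x hx := by
    refine Subgroup.mem_subgroupOf.2 ?_
    have h := Subgroup.mem_subgroupOf.1 hx
    rw [Parabolic.unipotentRadical_eq] at h
    exact RootGen.gen_le hD (fun s hs t => xGL_mem_pos hD hs.1 t) h
  hRn J h hh r hr := by
    rw [para_eq hD] at hh
    have := (Subgroup.mem_normalizer_iff''.1 (Parabolic.le_normalizer hD _ (Subgroup.mem_subgroupOf.1 hh)) _).1
      (Subgroup.mem_subgroupOf.1 hr)
    exact Subgroup.mem_subgroupOf.2 this
  hR J m hmJ hdesc x hx hxB := by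
    let P := BN.bnPair (F := F) hD
    have hmP : (m : ↥(D.group F)) ∈ para P J :=
      (CfsgLib.BNPair.Parabolic.mem_parabolic_cell P (CfsgLib.BNPair.Steinberg.sub_S P J) (CfsgLib.BNPair.Bruhat.rep_mem_cell P m)).2 hmJ
    rw [para_eq hD] at hmP
    set m₀ : GL D.Idx F := ((m : ↥(D.group F)) : GL D.Idx F)
    obtain ⟨l, hl, k, hk, hm⟩ := N.exists_word hD (Subgroup.mem_subgroupOf.1 m.2)
    have hlr : ∀ i ∈ l.reverse, i < D.rank := fun i hi => hl i (List.mem_reverse.1 hi)
    set J' := nat hD J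
    have hneg : ∀ s, D.IsPosRoot s → D.InRootSub J' s → D.IsNegRoot (N.act D l.reverse s) := fun s hs hsJ =>
      sub_neg_of_simple_neg hD hlr hs hsJ fun a ⟨ha, haJ⟩ _ => simple_neg hD m hl hk hm ha (hdesc _ ⟨_, haJ, rfl⟩)
    set A := RootGen.gen D F fun s => D.IsPosRoot s ∧ D.InRootSub J' s with hA
    set R₀ := D.unipotentRadical F J'
    have hAle : A ≤ Subgroup.normalizer (R₀ : Set (GL D.Idx F)) :=
      (RootGen.gen_le hD fun s hs t => Subgroup.mem_sup_left (Subgroup.mem_sup_left (xGL_mem_pos hD hs.1 t))).trans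
        (Parabolic.le_normalizer hD J')
    have hx0 : (x : GL D.Idx F) ∈ A ⊔ R₀ := by
      refine (Subgroup.closure_le _).2 ?_ (Subgroup.mem_subgroupOf.1 hx)
      rintro g ⟨s, t, hs, hg⟩
      obtain rfl : g = xGL hD F s t := Units.ext hg
      by_cases h : D.InRootSub J' s
      · exact Subgroup.mem_sup_left (RootGen.xGL_mem_gen hD ⟨hs, h⟩ t)
      · refine Subgroup.mem_sup_right ?_
        show _ ∈ D.unipotentRadical F J'
        rw [Parabolic.unipotentRadical_eq]
        exact RootGen.xGL_mem_gen hD (P := Parabolic.Rad D J') ⟨hs, h⟩ t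
    rw [← SetLike.mem_coe, Subgroup.coe_mul_of_left_le_normalizer_right _ _ hAle] at hx0
    obtain ⟨v, hv, r, hr, hvr⟩ := Set.mem_mul.1 hx0
    have hV : m₀⁻¹ * v * m₀ ∈ D.negUnipotent F := by
      have h : A ≤ (D.negUnipotent F).comap (MulAut.conj m₀⁻¹).toMonoidHom := RootGen.gen_le hD fun s hs t => by
        have hs' := hs.1.1
        obtain ⟨η, hη, he⟩ := N.nW_conj (F := F) hD hl (N.act_lt hD hlr hs')
        rw [BN.act_reverse hD hl hs'] at he
        have h1 : (η : F) * ((η : F) * t) = t := by rcases hη with rfl | rfl <;> simp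
        rw [Subgroup.mem_comap, MulEquiv.coe_toMonoidHom, MulAut.conj_apply, inv_inv, ← h1, ← he, show m₀ = N.nW hD F l * k from hm,
          show (N.nW hD F l * k)⁻¹ * (N.nW hD F l * xGL hD F (N.act D l.reverse s) ((η : F) * t) * (N.nW hD F l)⁻¹) *
            (N.nW hD F l * k) = k⁻¹ * xGL hD F (N.act D l.reverse s) ((η : F) * t) * k by group]
        exact (Subgroup.mem_normalizer_iff''.1 (BH.diagonal_normalizes_neg hD hk) _).1
          (xGL_mem_neg hD (hneg s hs.1 hs.2) _)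
      simpa using h hv
    have hrB : m₀⁻¹ * r * m₀ ∈ D.borelSubgroup F := by
      have h1 := (Subgroup.mem_normalizer_iff''.1 (Parabolic.le_normalizer hD J' (Subgroup.mem_subgroupOf.1 hmP)) _).1 hr
      rw [Parabolic.unipotentRadical_eq] at h1
      exact Subgroup.mem_sup_left (RootGen.gen_le hD (fun s hs t => xGL_mem_pos hD hs.1 t) h1)
    have hvB : m₀⁻¹ * v * m₀ ∈ D.borelSubgroup F := by
      have h1 : m₀⁻¹ * (x : GL D.Idx F) * m₀ ∈ D.borelSubgroup F := Subgroup.mem_subgroupOf.1 hxB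
      have := mul_mem h1 (inv_mem hrB)
      rw [← hvr] at this
      simpa [mul_assoc] using this
    have h0 : m₀⁻¹ * v * m₀ = 1 := Subgroup.mem_bot.1 ((BH.borel_inf_neg hD).le ⟨hvB, hV⟩)
    have hv1 : v = 1 := by
      rw [mul_eq_one_iff_eq_inv] at h0
      simpa using h0
    refine Subgroup.mem_subgroupOf.2 ?_
    rw [← hvr, hv1, one_mul]
    exact hr

theorem count (hD : D ∈ dataList) (p : ℕ) [Fact p.Prime] [CharP F p] :
    Nat.card {g : ↥(D.group F) // ∃ k : ℕ, orderOf g = p ^ k} = Fintype.card F ^ (2 * (D.nroots / 2)) := by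
  have := Fintype.ofFinite ↥(D.group F)
  have h := CfsgLib.BNPair.UnipotentCount.count (split (F := F) hD p)
  rw [← Steinberg.eq_st hD, Steinberg.degree hD] at h
  have hU : Nat.card (split (F := F) hD p).U = Fintype.card F ^ (D.nroots / 2) := by
    show Nat.card ((D.posUnipotent F).subgroupOf (D.group F)) = _
    rw [Nat.card_congr (Subgroup.subgroupOfEquivOfLe (le_sup_left.trans (borel_le_group (F := F) hD))).toEquiv,
      U.card_posUnipotent hD]
  rw [hU] at h
  have h' := h.trans (by push_cast; ring :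
    ((Fintype.card F ^ (D.nroots / 2) : ℕ) : ℂ) * (Fintype.card F : ℂ) ^ (D.nroots / 2) =
      ((Fintype.card F ^ (2 * (D.nroots / 2)) : ℕ) : ℂ))
  exact_mod_cast h'

end CfsgLib.Chev.UnipotentCount
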